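import Mathlib
import Cfsg.Prelude.Def_AxialAlgebras

/-!
Eigenspace facts for a Majorana axis.
-/

set_option autoImplicit false

namespace CfsgLib.Plane4.Majorana

open Cfsg.Axial

variable {V : Type*} [AddCommGroup V] [Module ℝ V] {mul : V →ₗ[ℝ] V →ₗ[ℝ] V}
  {B : LinearMap.BilinForm ℝ V} {μ : V ≃ₗ[ℝ] V} {a : V}

theorem mem_eigen {c : ℝ} {v : V} : v ∈ eigen mul a c ↔ mul a v = c • v :=
  Module.End.mem_eigenspace_iff

theorem eigen_le_eigenSum {S : Set ℝ} {c : ℝ} (hc : c ∈ S) : eigen mul a c ≤ eigenSum mul a S :=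
  le_iSup₂ (f := fun d (_ : d ∈ S) => eigen mul a d) c hc

theorem eigenSum_insert (c : ℝ) (S : Set ℝ) :
    eigenSum mul a (insert c S) = eigen mul a c ⊔ eigenSum mul a S :=
  iSup_insert

theorem eigenSum_singleton (c : ℝ) : eigenSum mul a ({c} : Set ℝ) = eigen mul a c :=
  iSup_singleton

theorem mem_eigenSum_pair {c d : ℝ} {v : V} :
    v ∈ eigenSum mul a ({c, d} : Set ℝ) ↔ ∃ u ∈ eigen mul a c, ∃ w ∈ eigen mul a d, u + w = v := by
  rw [eigenSum_insert, eigenSum_singleton, Submodule.mem_sup]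

/-- The four components of a vector. -/
theorem decomp (h : IsMajoranaPair mul B μ a) (v : V) :
    ∃ (t : ℝ) (v₀ v₁ v₂ : V), v₀ ∈ eigen mul a 0 ∧ v₁ ∈ eigen mul a (1 / 4) ∧
      v₂ ∈ eigen mul a (1 / 32) ∧ v = t • a + v₀ + v₁ + v₂ := by
  obtain ⟨-, -, ⟨⟨-, -, htop, -⟩, h1⟩, -⟩ := h
  have hv : v ∈ eigenSum mul a majoranaSpectrum := htop ▸ Submodule.mem_top
  rw [majoranaSpectrum, eigenSum_insert, eigenSum_insert, eigenSum_insert, eigenSum_singleton,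
    h1] at hv
  obtain ⟨x, hx, y, hy, rfl⟩ := Submodule.mem_sup.1 hv
  obtain ⟨v₀, h₀, w, hw, rfl⟩ := Submodule.mem_sup.1 hy
  obtain ⟨v₁, h₁, v₂, h₂, rfl⟩ := Submodule.mem_sup.1 hw
  obtain ⟨t, rfl⟩ := Submodule.mem_span_singleton.1 hx
  exact ⟨t, v₀, v₁, v₂, h₀, h₁, h₂, by simp [add_assoc]⟩

/-- A vector fixed by the involution has no component for `1/32`. -/
theorem decomp_fixed (h : IsMajoranaPair mul B μ a) {v : V} (hv : μ v = v) :
    ∃ (t : ℝ) (v₀ v₁ : V), v₀ ∈ eigen mul a 0 ∧ v₁ ∈ eigen mul a (1 / 4) ∧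
      v = t • a + v₀ + v₁ := by
  obtain ⟨t, v₀, v₁, v₂, h₀, h₁, h₂, rfl⟩ := decomp h v
  obtain ⟨-, -, ⟨⟨-, haa, -, -⟩, -⟩, hfix, hneg⟩ := h
  have ha : a ∈ eigen mul a (1 : ℝ) := mem_eigen.2 (by rw [haa, one_smul])
  have e1 : μ (t • a + v₀ + v₁) = t • a + v₀ + v₁ := by
    refine hfix _ (add_mem (add_mem (Submodule.smul_mem _ t ?_) ?_) ?_)
    · exact eigen_le_eigenSum (by simp) ha
    · exact eigen_le_eigenSum (by simp) h₀
    · exact eigen_le_eigenSum (by simp) h₁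
  have e2 : μ v₂ = -v₂ := hneg v₂ h₂
  rw [map_add, e1, e2, add_right_inj] at hv
  have : (2 : ℝ) • v₂ = 0 := by rw [two_smul]; nth_rw 1 [← hv]; exact neg_add_cancel v₂
  exact ⟨t, v₀, v₁, h₀, h₁, by simp [(smul_eq_zero.1 this).resolve_left (by norm_num)]⟩

/-- Independence of the three eigenspaces. -/
theorem indep (ha : mul a a = a) (hne : a ≠ 0) {x : ℝ} {u w : V} (hu : u ∈ eigen mul a 0)
    (hw : w ∈ eigen mul a (1 / 4)) (h : x • a + u + w = 0) : x = 0 ∧ u = 0 ∧ w = 0 := by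
  rw [mem_eigen] at hu hw
  have h1 : x • a + (1 / 4 : ℝ) • w = 0 := by
    have := congrArg (mul a) h
    simpa [ha, hu, hw] using this
  have h2 : x • a + (1 / 4 : ℝ) • ((1 / 4 : ℝ) • w) = 0 := by
    have := congrArg (mul a) h1
    simpa [ha, hw] using this
  have h3 : (3 / 16 : ℝ) • w = 0 := by
    calc (3 / 16 : ℝ) • w = (x • a + (1 / 4 : ℝ) • w) - (x • a + (1 / 4 : ℝ) • ((1 / 4 : ℝ) • w)) := by
          module
      _ = 0 := by rw [h1, h2, sub_self]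
  have w0 : w = 0 := (smul_eq_zero.1 h3).resolve_left (by norm_num)
  rw [w0, smul_zero, add_zero] at h1
  have x0 : x = 0 := (smul_eq_zero.1 h1).resolve_right hne
  refine ⟨x0, ?_, w0⟩
  simpa [x0, w0] using h

end CfsgLib.Plane4.Majorana
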